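import Cfsg.Agent.H64.Chev.AutSystems

/-!
# Outer automorphisms of E₆, E₇, E₈
-/

set_option autoImplicit false

namespace Cfsg.Agent.H64.AutChev

open Cfsg.Lie Cfsg.Agent.H46
open scoped Matrix MatrixGroups

variable {F : Type*} [Field F]

theorem symmetry_E7 (π : Equiv.Perm (Fin chevE7.rank)) (h : chevE7.IsDiagramSymmetry π) : π = 1 := by
  obtain ⟨L, hL, hπ⟩ := nodes_mem nodes_all.2.2.2.2.2.1 π
    (cartan_zero_of_symmetry goodE7 symmZero_all.2.2.2.1 h)
  simp only [List.mem_cons, List.not_mem_nil, or_false] at hL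
  subst hL
  exact Equiv.ext fun i => Fin.ext (by
    rw [← hπ i]; rcases i with ⟨i, hi⟩; have : i < 7 := hi; interval_cases i <;> rfl)

theorem symmetry_E8 (π : Equiv.Perm (Fin chevE8.rank)) (h : chevE8.IsDiagramSymmetry π) : π = 1 := by
  obtain ⟨L, hL, hπ⟩ := nodes_mem nodes_all.2.2.2.2.2.2 π
    (cartan_zero_of_symmetry goodE8 symmZero_all.2.2.2.2 h)
  simp only [List.mem_cons, List.not_mem_nil, or_false] at hL
  subst hL
  exact Equiv.ext fun i => Fin.ext (by
    rw [← hπ i]; rcases i with ⟨i, hi⟩; have : i < 8 := hi; interval_cases i <;> rfl)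

theorem honly_of_symmetry {D : ChevalleyDatum} (G : Good D)
    (hs : ∀ π : Equiv.Perm (Fin D.rank), D.IsDiagramSymmetry π → π = 1)
    (g' : ↥(D.group F) ≃* ↥(D.group F)) (hg : D.IsGraphAut g') (π : Equiv.Perm (Fin D.rank))
    (e : Fin D.rank → ℕ) (h : Sends G g' π e) (i : Fin D.rank) : π i = i := by
  obtain ⟨π', hsym, h'⟩ := sends_of_isGraphAut G hg
  have e1 := (h i 1).1
  rw [(h' i 1).1, one_pow, one_pow, hs π' hsym] at e1
  by_contra hne
  exact G.xg_ne_of_ne (r := G.simpleF i) (s := G.simpleF (π i))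
    (fun hh => hne (simple_injective G (congrArg Fin.val hh)).symm) one_ne_zero 1
    (congrArg Subtype.val e1)

variable [Fintype F] (p f : ℕ) [Fact p.Prime] [CharP F p]

theorem card_out_E8 (hF : Fintype.card F = p ^ f) : Nat.card (Cfsg.Out ↥(chevE8.group F)) = f := by
  have S : GraphSystem F goodE8 Unit := trivialSystem goodE8 (Chev.chkDescend_of_mem (by simp)) (by decide +kernel)
    (honly_of_symmetry goodE8 symmetry_E8) (fun i => graphExp_self _ _)
  rw [card_out goodE8 S (by simp) (hasExceptional_of_ne (ne_of_rank (by decide +kernel))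
      (ne_of_rank (by decide +kernel)) (ne_of_rank (by decide +kernel))) (n := 1) Nat.card_unique,
    goodE8.card_ker_torus smithE8 smithOk_E8, card_ringEquiv p f hF,
    prod_gcd_getD _ smithE8.s (by decide +kernel)]
  simp [smithE8]

theorem card_out_E7 (hF : Fintype.card F = p ^ f) :
    Nat.card (Cfsg.Out ↥(chevE7.group F)) = Nat.gcd 2 (p ^ f - 1) * f := by
  have S : GraphSystem F goodE7 Unit := trivialSystem goodE7 (Chev.chkDescend_of_mem (by simp)) (by decide +kernel)
    (honly_of_symmetry goodE7 symmetry_E7) (fun i => graphExp_self _ _)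
  rw [card_out goodE7 S (by simp) (hasExceptional_of_ne (ne_of_rank (by decide +kernel))
      (ne_of_rank (by decide +kernel)) (ne_of_rank (by decide +kernel))) (n := 1) Nat.card_unique,
    goodE7.card_ker_torus smithE7 smithOk_E7, card_ringEquiv p f hF,
    prod_gcd_getD _ smithE7.s (by decide +kernel), hF]
  simp [smithE7, Nat.gcd_comm]

theorem card_out_E6 (hF : Fintype.card F = p ^ f) :
    Nat.card (Cfsg.Out ↥(chevE6.group F)) = 2 * Nat.gcd 3 (p ^ f - 1) * f := by
  obtain ⟨τ, hτ⟩ : ∃ τ : Equiv.Perm (Fin chevE6.rank), ∀ i : Fin chevE6.rank, ([5, 1, 4, 3, 2, 0] : List ℕ).getD i 0 = τ i := by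
    refine ⟨⟨fun i => ⟨([5, 1, 4, 3, 2, 0] : List ℕ).getD i 0, ?_⟩, fun i => ⟨([5, 1, 4, 3, 2, 0] : List ℕ).getD i 0, ?_⟩, ?_, ?_⟩,
      fun i => rfl⟩
    · revert i; decide +kernel
    · revert i; decide +kernel
    · intro i; revert i; decide +kernel
    · intro i; revert i; decide +kernel
  have hne : τ ≠ 1 := fun h => by
    have := hτ ⟨0, by decide +kernel⟩
    rw [h] at this
    exact absurd this (by decide +kernel)
  obtain ⟨hw0, hexp⟩ : (∃ S : Cfsg.Agent.H47.SymTable, Chev.chkPlain chevE6 S = true ∧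
      ∀ i : Fin chevE6.rank, (τ i : ℕ) = S.ρ i) ∧
      ∀ i : Fin chevE6.rank, chevE6.graphExp (ringChar F) i (τ i) = 1 := by
    refine ⟨⟨Chev.tabE6_514320, by decide +kernel, fun i => ?_⟩, fun i => ?_⟩
    · rw [← hτ]; revert i; decide +kernel
    · rw [← hτ]
      have : ∀ i : Fin chevE6.rank, chevE6.isLong (chevE6.simple (([5, 1, 4, 3, 2, 0] : List ℕ).getD i 0)) = false := by
        decide +kernel
      simp only [ChevalleyDatum.graphExp, this i]
      rfl
  obtain ⟨S, hS, hρ⟩ := hw0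
  simp only [Chev.chkPlain, Bool.and_eq_true, List.all_eq_true, List.mem_range, decide_eq_true_eq] at hS
  obtain ⟨⟨hc, hsim⟩, -⟩ := hS
  have hw : Sends goodE6 (Cfsg.Agent.H47.SymTable.groupEquiv hc F) τ
      (fun i => chevE6.graphExp (ringChar F) i (τ i)) := by
    intro i t
    obtain ⟨⟨⟨a, b⟩, c⟩, d⟩ := hsim i i.2
    constructor <;> refine Subtype.ext (goodE6.eq_xg ?_) <;>
      rw [Cfsg.Agent.H47.SymTable.groupEquiv_coe, xG_coe, goodE6.coe_xg]
    · rw [Cfsg.Agent.H47.SymTable.matEquiv_x hc F _ (goodE6.simple_lt i.2), a, c, ← hρ,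
        Int.cast_one, one_mul]
      simp only [hexp, pow_one]
    · rw [Cfsg.Agent.H47.SymTable.matEquiv_x hc F _ (goodE6.neg_lt (goodE6.simple_lt i.2)), b, d, ← hρ,
        Int.cast_one, one_mul]
      simp only [hexp, pow_one]
  have S : GraphSystem F goodE6 Bool := pairSystem goodE6 (Chev.chkDescend_of_mem (by simp)) (by decide +kernel)
    _ τ hne hw ⟨⟨0, by decide +kernel⟩, hexp _⟩ (fun π hπ => by
      obtain ⟨L, hL, h⟩ := nodes_mem nodes_all.2.2.2.2.1 π (cartan_zero_of_symmetry goodE6 symmZero_all.2.2.1 hπ)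
      simp only [List.mem_cons, List.not_mem_nil, or_false] at hL
      rcases hL with rfl | rfl
      · exact Or.inl (Equiv.ext fun i => Fin.ext (by
          rw [← h i]; rcases i with ⟨i, hi⟩; have : i < 6 := hi; interval_cases i <;> rfl))
      · exact Or.inr (Equiv.ext fun i => Fin.ext (by rw [← h i, ← hτ i])))
  rw [card_out goodE6 S (by simp) (hasExceptional_of_ne (ne_of_rank (by decide +kernel))
      (ne_of_rank (by decide +kernel)) (ne_of_rank (by decide +kernel))) (n := 2) (by simp),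
    goodE6.card_ker_torus smithE6 smithOk_E6, card_ringEquiv p f hF,
    prod_gcd_getD _ smithE6.s (by decide +kernel), hF]
  simp [smithE6, Nat.gcd_comm, mul_comm]

end Cfsg.Agent.H64.AutChev
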