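import Cfsg.Agent.H64.Chev.AutOutE
import Cfsg.Agent.H64.Chev.Exceptional

/-!
# Graph systems of the types with two root lengths; outer automorphisms of `G₂`, `F₄`
-/

set_option autoImplicit false

namespace Cfsg.Agent.H64.AutChev

open Cfsg.Lie Cfsg.Agent.H46
open scoped Matrix MatrixGroups

variable {D : ChevalleyDatum} (G : Good D) {F : Type*} [Field F]

theorem neg_one_pow_graphExp [Finite F] (i j : ℕ) : (-1 : F) ^ D.graphExp (ringChar F) i j = -1 := by
  haveI : Fact (ringChar F).Prime := ⟨CharP.char_is_prime F (ringChar F)⟩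
  unfold ChevalleyDatum.graphExp
  split
  · exact neg_one_pow_char F (ringChar F)
  · exact pow_one _

theorem perm_cases {L : List ℕ} (hn : chkNodes D [List.range D.rank, L] = true) (hz : chkSymmZero D = true)
    {τ : Equiv.Perm (Fin D.rank)} (hτ : ∀ i, (τ i : ℕ) = L.getD i 0)
    (π : Equiv.Perm (Fin D.rank)) (hπ : D.IsDiagramSymmetry π) (G : Good D) : π = 1 ∨ π = τ := by
  obtain ⟨M, hM, h⟩ := nodes_mem hn π (cartan_zero_of_symmetry G hz hπ)
  simp only [List.mem_cons, List.not_mem_nil, or_false] at hM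
  rcases hM with rfl | rfl
  · exact Or.inl (Equiv.ext fun i => Fin.ext (by rw [← h i]; simp))
  · exact Or.inr (Equiv.ext fun i => Fin.ext (by rw [← h i, ← hτ i]))

theorem symmZero_two : chkSymmZero chevB2 = true := by decide +kernel

theorem nodes_two : chkNodes chevG2 [List.range chevG2.rank, [1, 0]] = true ∧
    chkNodes chevB2 [List.range chevB2.rank, [1, 0]] = true ∧
    chkNodes chevF4 [List.range chevF4.rank, [3, 2, 1, 0]] = true := by decide +kernel

/-- In characteristic `p`, two nodes (0 for `B₂` and `G₂`) are exchanged with exponent `p`. -/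
noncomputable def swapSystem (hdesc : Chev.chkDescend D = true) (h0 : 0 < D.rank) {L e : List ℕ}
    (hn : chkNodes D [List.range D.rank, L] = true) (hz : chkSymmZero D = true) (h1 : L.getD 0 0 ≠ 0)
    {g : ↥(D.group F) ≃* ↥(D.group F)} {π : Equiv.Perm (Fin D.rank)} (hπ : ∀ i, (π i : ℕ) = L.getD i 0)
    (hs : Sends G g π (fun i => e.getD i 0))
    (he : ∀ i : Fin D.rank, D.graphExp (ringChar F) i (L.getD i 0) = e.getD i 0)
    (hone : ∃ i : Fin D.rank, e.getD i 0 = 1) : GraphSystem F G Bool :=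
  pairSystem G hdesc h0 g π
    (fun h => h1 (by rw [← hπ ⟨0, h0⟩, h]; rfl))
    (fun i t => by have h := hs i t; beta_reduce at h ⊢; rw [show D.graphExp (ringChar F) i (π i) = e.getD i 0 by rw [hπ, he]]; exact h)
    (hone.imp fun i hi => by rw [hπ, he, hi])
    (fun π' hπ' => perm_cases hn hz hπ π' hπ' G)

theorem swap_char_G2 [Finite F] (h3 : (3 : F) ≠ 0) (hq : ∃ a : F, a ≠ 0 ∧ a ≠ 1)
    (g' : ↥(chevG2.group F) ≃* ↥(chevG2.group F)) (hg : chevG2.IsGraphAut g') (π : Equiv.Perm (Fin chevG2.rank))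
    (e : Fin chevG2.rank → ℕ) (h : Sends goodG2 g' π e) (i : Fin chevG2.rank) : π i = i := by
  obtain ⟨π', hsym, h'⟩ := sends_of_isGraphAut goodG2 hg
  have hfix : π' = 1 := by
    have A := acts_of_sends goodG2 h' (fun i => neg_one_pow_graphExp _ _)
    obtain ⟨L, hL, hπ⟩ := nodes_mem nodes_all.1 π' A.cartan_zero_iff
    simp only [List.mem_cons, List.not_mem_nil, or_false] at hL
    rcases hL with rfl | rfl
    · exact Equiv.ext fun i => Fin.ext (by
        rw [← hπ]; rcases i with ⟨i, hi⟩; have : i < 2 := hi; interval_cases i <;> rfl)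
    · exfalso
      set s : Fin chevG2.rank := ⟨0, by decide +kernel⟩
      set l : Fin chevG2.rank := ⟨1, by decide +kernel⟩
      have hs : π' s = l := Fin.ext (by rw [← hπ]; rfl)
      have hl : π' l = s := Fin.ext (by rw [← hπ]; rfl)
      have ha : chevG2.cartan l (chevG2.simple s) = -1 := by decide +kernel
      have hb : chevG2.cartan (π' l) (chevG2.simple (π' s)) = -((3 : ℕ) : ℤ) := by rw [hs, hl]; decide +kernel
      obtain ⟨hpw, -⟩ := A.edge_pow (fun i => one_pow _) ha hb (by norm_num)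
      rcases two_or_three_eq_zero A (fun i => one_pow _) hpw with h | ⟨-, h01⟩
      · exact h3 h
      · obtain ⟨a, ha0, ha1⟩ := hq
        exact (h01 a).elim ha0 ha1
  have e1 := (h i 1).1
  rw [(h' i 1).1, one_pow, one_pow, hfix] at e1
  by_contra hne
  exact goodG2.xg_ne_of_ne (r := goodG2.simpleF i) (s := goodG2.simpleF (π i))
    (fun hh => hne (simple_injective goodG2 (congrArg Fin.val hh)).symm) one_ne_zero 1
    (congrArg Subtype.val e1)

theorem swap_char_F4 [Finite F] (h2 : (2 : F) ≠ 0)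
    (g' : ↥(chevF4.group F) ≃* ↥(chevF4.group F)) (hg : chevF4.IsGraphAut g') (π : Equiv.Perm (Fin chevF4.rank))
    (e : Fin chevF4.rank → ℕ) (h : Sends goodF4 g' π e) (i : Fin chevF4.rank) : π i = i := by
  obtain ⟨π', hsym, h'⟩ := sends_of_isGraphAut goodF4 hg
  have hfix : π' = 1 := by
    have A := acts_of_sends goodF4 h' (fun i => neg_one_pow_graphExp _ _)
    obtain ⟨L, hL, hπ⟩ := nodes_mem nodes_all.2.2.1 π' A.cartan_zero_iff
    simp only [List.mem_cons, List.not_mem_nil, or_false] at hL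
    rcases hL with rfl | rfl
    · exact Equiv.ext fun i => Fin.ext (by
        rw [← hπ]; rcases i with ⟨i, hi⟩; have : i < 4 := hi; interval_cases i <;> rfl)
    · exfalso
      set a1 : Fin chevF4.rank := ⟨1, by decide +kernel⟩
      set a2 : Fin chevF4.rank := ⟨2, by decide +kernel⟩
      have p1 : π' a1 = a2 := Fin.ext (by rw [← hπ]; rfl)
      have p2 : π' a2 = a1 := Fin.ext (by rw [← hπ]; rfl)
      have ha : chevF4.cartan a2 (chevF4.simple a1) = -1 := by decide +kernel
      have hb : chevF4.cartan (π' a2) (chevF4.simple (π' a1)) = -((2 : ℕ) : ℤ) := by rw [p2, p1]; decide +kernel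
      obtain ⟨hpw, -⟩ := A.edge_pow (fun i => one_pow _) ha hb (by norm_num)
      exact h2 (two_eq_zero A (fun i => one_pow _) hpw)
  have e1 := (h i 1).1
  rw [(h' i 1).1, one_pow, one_pow, hfix] at e1
  by_contra hne
  exact goodF4.xg_ne_of_ne (r := goodF4.simpleF i) (s := goodF4.simpleF (π i))
    (fun hh => hne (simple_injective goodF4 (congrArg Fin.val hh)).symm) one_ne_zero 1
    (congrArg Subtype.val e1)

/-- The graph systems of `G₂`. -/
theorem exists_system_G2 [Finite F] (hq : ∃ a : F, a ≠ 0 ∧ a ≠ 1) :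
    ((3 : F) = 0 ∧ Nonempty (GraphSystem F goodG2 Bool)) ∨ ((3 : F) ≠ 0 ∧ Nonempty (GraphSystem F goodG2 Unit)) := by
  have hdesc : Chev.chkDescend chevG2 = true := Chev.chkDescend_of_mem (by simp)
  by_cases h3 : (3 : F) = 0
  · obtain ⟨g, π, hπ, hs⟩ := (Isogeny.hasExceptional chevG2 F).G2 rfl h3
    haveI := Fact.mk Nat.prime_three
    haveI : CharP F 3 := (CharP.charP_iff_prime_eq_zero Nat.prime_three).2 h3
    exact Or.inl ⟨h3, ⟨swapSystem goodG2 hdesc (by decide +kernel) nodes_two.1 symmZero_all.1 (by decide) hπ hs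
      (by rw [ringChar.eq F 3]; decide +kernel) ⟨⟨1, by decide +kernel⟩, rfl⟩⟩⟩
  · exact Or.inr ⟨h3, ⟨trivialSystem goodG2 hdesc (by decide +kernel) (swap_char_G2 h3 hq)
      (fun i => graphExp_self _ _)⟩⟩

/-- The graph systems of `F₄`. -/
theorem exists_system_F4 [Finite F] :
    ((2 : F) = 0 ∧ Nonempty (GraphSystem F goodF4 Bool)) ∨ ((2 : F) ≠ 0 ∧ Nonempty (GraphSystem F goodF4 Unit)) := by
  have hdesc : Chev.chkDescend chevF4 = true := Chev.chkDescend_of_mem (by simp)
  by_cases h2 : (2 : F) = 0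
  · obtain ⟨g, π, hπ, hs⟩ := (Isogeny.hasExceptional chevF4 F).F4 rfl h2
    haveI := Fact.mk Nat.prime_two
    haveI : CharP F 2 := (CharP.charP_iff_prime_eq_zero Nat.prime_two).2 h2
    exact Or.inl ⟨h2, ⟨swapSystem goodF4 hdesc (by decide +kernel) nodes_two.2.2 symmZero_all.2.1 (by decide) hπ hs
      (by rw [ringChar.eq F 2]; decide +kernel) ⟨⟨2, by decide +kernel⟩, rfl⟩⟩⟩
  · exact Or.inr ⟨h2, ⟨trivialSystem goodF4 hdesc (by decide +kernel) (swap_char_F4 h2)
      (fun i => graphExp_self _ _)⟩⟩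

variable [Fintype F] (p f : ℕ) [Fact p.Prime] [CharP F p]

theorem card_out_G2 (hF : Fintype.card F = p ^ f) (hq : 3 ≤ p ^ f) :
    Nat.card (Cfsg.Out ↥(chevG2.group F)) = if p = 3 then 2 * f else f := by
  classical
  obtain ⟨a, ha⟩ : ∃ a : F, a ∉ ({0, 1} : Finset F) := by
    have : ({0, 1} : Finset F) ≠ Finset.univ := fun h => by
      have h2 : ({0, 1} : Finset F).card ≤ 2 := Finset.card_le_two
      rw [h, Finset.card_univ, hF] at h2; omega
    simpa [Finset.eq_univ_iff_forall] using this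
  have h3 : (3 : F) = 0 ↔ p = 3 := by
    rw [show (3 : F) = ((3 : ℕ) : F) by norm_num, CharP.cast_eq_zero_iff F p,
      Nat.prime_dvd_prime_iff_eq (Fact.out : p.Prime) Nat.prime_three]
  have hk : Nat.card (goodG2.torus (F := F)).ker = 1 := by
    rw [goodG2.card_ker_torus smithG2 smithOk_G2, prod_gcd_getD _ smithG2.s (by decide +kernel)]
    simp [smithG2]
  rcases exists_system_G2 (F := F) ⟨a, by simpa using ha⟩ with ⟨h, ⟨S⟩⟩ | ⟨h, ⟨S⟩⟩
  · rw [card_out goodG2 S (by simp) (Isogeny.hasExceptional _ _) (n := 2) (by simp), hk, card_ringEquiv p f hF,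
      if_pos (h3.1 h), one_mul]
  · rw [card_out goodG2 S (by simp) (Isogeny.hasExceptional _ _) (n := 1) Nat.card_unique, hk,
      card_ringEquiv p f hF, if_neg (fun e => h (h3.2 e))]
    simp

theorem card_out_F4 (hF : Fintype.card F = p ^ f) :
    Nat.card (Cfsg.Out ↥(chevF4.group F)) = Nat.gcd 2 p * f := by
  have h2 : (2 : F) = 0 ↔ p = 2 := by
    rw [show (2 : F) = ((2 : ℕ) : F) by norm_num, CharP.cast_eq_zero_iff F p,
      Nat.prime_dvd_prime_iff_eq (Fact.out : p.Prime) Nat.prime_two]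
  have hk : Nat.card (goodF4.torus (F := F)).ker = 1 := by
    rw [goodF4.card_ker_torus smithF4 smithOk_F4, prod_gcd_getD _ smithF4.s (by decide +kernel)]
    simp [smithF4]
  rcases exists_system_F4 (F := F) with ⟨h, ⟨S⟩⟩ | ⟨h, ⟨S⟩⟩
  · rw [card_out goodF4 S (by simp) (Isogeny.hasExceptional _ _) (n := 2) (by simp), hk, card_ringEquiv p f hF,
      h2.1 h]
    simp
  · rw [card_out goodF4 S (by simp) (Isogeny.hasExceptional _ _) (n := 1) Nat.card_unique, hk,
      card_ringEquiv p f hF, show Nat.gcd 2 p = 1 from (Nat.coprime_primes Nat.prime_two (Fact.out : p.Prime)).2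
        (fun e => h (h2.2 e.symm))]

end Cfsg.Agent.H64.AutChev
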