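import Cfsg.Agent.H64.Chev.AutSystems
import Cfsg.Agent.H64.Chev.Exceptional

/-!
# The structure of the outer automorphism group of a finite Chevalley group
-/

set_option autoImplicit false

namespace Cfsg.Agent.H64.AutChev

open Cfsg.Lie Cfsg.Agent.H46
open scoped Matrix MatrixGroups

variable {D : ChevalleyDatum} (G : Good D) {F : Type*} [Field F]

/-- The diagram symmetries that are induced by graph automorphisms. -/
def Realized (F : Type*) [Field F] (π : Equiv.Perm (Fin D.rank)) : Prop :=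
  ∃ g : MulAut ↥(D.group F), D.IsDiagramSymmetry π ∧ Sends G g π (fun i => D.graphExp (ringChar F) i (π i))

theorem exists_exp_one (h0 : 0 < D.rank) (c : ℕ) (π : Equiv.Perm (Fin D.rank)) :
    ∃ i : Fin D.rank, D.graphExp c i (π i) = 1 := by
  by_cases h : ∃ i : Fin D.rank, D.isLong (D.simple i) = true
  · obtain ⟨i, hi⟩ := h
    exact ⟨i, by simp [ChevalleyDatum.graphExp, hi]⟩
  · simp only [not_exists, Bool.not_eq_true] at h
    exact ⟨⟨0, h0⟩, by simp [ChevalleyDatum.graphExp, h]⟩

/-- The system of all graph automorphisms. -/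
noncomputable def fullSystem (hdesc : Chev.chkDescend D = true) (h0 : 0 < D.rank) :
    GraphSystem F G {π : Equiv.Perm (Fin D.rank) // Realized G F π} where
  g k := k.2.choose
  π k := k.1
  e k i := D.graphExp (ringChar F) i (k.1 i)
  sends k := k.2.choose_spec.2
  inj := Subtype.val_injective
  one k := exists_exp_one h0 _ k.1
  complete g' hg' := by
    obtain ⟨π, hsym, hs⟩ := sends_of_isGraphAut G hg'
    exact ⟨⟨π, g', hsym, hs⟩, sends_ext G hdesc hs (Exists.choose_spec (⟨g', hsym, hs⟩ : Realized G F π)).2⟩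

/-- Field automorphisms as a homomorphism. -/
noncomputable def fieldHom (D : ChevalleyDatum) (F : Type*) [Field F] : (F ≃+* F) →* MulAut ↥(D.group F) where
  toFun σ := Cfsg.Agent.H47.fieldAut D σ
  map_one' := MulEquiv.ext fun _ => Subtype.ext (Units.ext (Matrix.ext fun _ _ => rfl))
  map_mul' _ _ := MulEquiv.ext fun _ => Subtype.ext (Units.ext (Matrix.ext fun _ _ => rfl))

include G in
theorem field_eq_fieldHom (hdesc : Chev.chkDescend D = true) {φ : MulAut ↥(D.group F)} (h : D.IsFieldAut φ) :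
    ∃ σ, φ = fieldHom D F σ := by
  obtain ⟨σ, hσ⟩ := h
  refine ⟨σ, ?_⟩
  have key : ∀ r, r < D.nroots → ∀ t : F, φ (G.xG r t) = fieldHom D F σ (G.xG r t) := fun r hr t => by
    have h1 : φ (G.xG r t) = G.xG r (σ t) :=
      Subtype.ext (G.eq_xg (hσ (G.xG r t) r t hr (G.coe_xg r t)))
    rw [h1]; exact (fieldAut_xG G σ r t).symm
  have h2 := Chev.hom_ext_simple G hdesc φ.toMonoidHom (fieldHom D F σ).toMonoidHom
    (fun i hi t => key _ (G.simple_lt hi) t) (fun i hi t => key _ (G.neg_lt (G.simple_lt hi)) t)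
  exact MulEquiv.ext fun y => DFunLike.congr_fun h2 y

/-- Two automorphisms agreeing on the fundamental root elements are equal. -/
theorem aut_ext (hdesc : Chev.chkDescend D = true) {a b : MulAut ↥(D.group F)}
    (h1 : ∀ (i : Fin D.rank) (t : F), a (G.xG (D.simple i) t) = b (G.xG (D.simple i) t))
    (h2 : ∀ (i : Fin D.rank) (t : F), a (G.xG (D.neg (D.simple i)) t) = b (G.xG (D.neg (D.simple i)) t)) : a = b :=
  MulEquiv.ext fun y => DFunLike.congr_fun (Chev.hom_ext_simple G hdesc a.toMonoidHom b.toMonoidHom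
    (fun i hi t => h1 ⟨i, hi⟩ t) (fun i hi t => h2 ⟨i, hi⟩ t)) y

/-- A graph automorphism carries a diagonal one to a diagonal one. -/
theorem graph_diag (hdesc : Chev.chkDescend D = true) (hdec : Chev.chkDec D = true) {g : MulAut ↥(D.group F)}
    {π : Equiv.Perm (Fin D.rank)} {e : Fin D.rank → ℕ} (hg : Sends G g π e) (c : Fin D.rank → Fˣ) :
    g * diagHom G hdec c = diagHom G hdec (fun j => c (π.symm j) ^ e (π.symm j)) * g := by
  refine aut_ext G hdesc (fun i t => ?_) (fun i t => ?_)
  · simp only [MulAut.mul_apply]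
    rw [diagHom_simple, (hg i _).1, (hg i _).1, diagHom_simple, Equiv.symm_apply_apply, Units.val_pow_eq_pow_val,
      mul_pow]
  · simp only [MulAut.mul_apply]
    rw [diagHom_neg, (hg i _).2, (hg i _).2, diagHom_neg, Equiv.symm_apply_apply, ← inv_pow,
      Units.val_pow_eq_pow_val, mul_pow]

theorem field_diag (hdesc : Chev.chkDescend D = true) (hdec : Chev.chkDec D = true) (σ : F ≃+* F)
    (c : Fin D.rank → Fˣ) :
    fieldHom D F σ * diagHom G hdec c =
      diagHom G hdec (fun j => Units.map σ.toRingHom.toMonoidHom (c j)) * fieldHom D F σ := by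
  refine aut_ext G hdesc (fun i t => ?_) (fun i t => ?_) <;>
    simp only [MulAut.mul_apply, fieldHom, MonoidHom.coe_mk, OneHom.coe_mk]
  · rw [diagHom_simple, fieldAut_xG G, fieldAut_xG G, diagHom_simple, map_mul]; rfl
  · rw [diagHom_neg, fieldAut_xG G, fieldAut_xG G, diagHom_neg, map_mul, ← map_inv]; rfl

theorem graph_field (hdesc : Chev.chkDescend D = true) {g : MulAut ↥(D.group F)}
    {π : Equiv.Perm (Fin D.rank)} {e : Fin D.rank → ℕ} (hg : Sends G g π e) (σ : F ≃+* F) :
    g * fieldHom D F σ = fieldHom D F σ * g := by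
  refine aut_ext G hdesc (fun i t => ?_) (fun i t => ?_) <;>
    simp only [MulAut.mul_apply, fieldHom, MonoidHom.coe_mk, OneHom.coe_mk, fieldAut_xG G]
  · rw [(hg i _).1, (hg i _).1, fieldAut_xG G, map_pow]
  · rw [(hg i _).2, (hg i _).2, fieldAut_xG G, map_pow]

theorem isCyclic_ringEquiv (F : Type*) [Field F] [Finite F] : IsCyclic (F ≃+* F) := by
  set p := ringChar F
  haveI : Fact p.Prime := ⟨CharP.char_is_prime F p⟩
  haveI : Algebra (ZMod p) F := ZMod.algebra F p
  let e : (F ≃ₐ[ZMod p] F) →* (F ≃+* F) :=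
    { toFun := fun σ => σ.toRingEquiv, map_one' := rfl, map_mul' := fun _ _ => rfl }
  refine isCyclic_of_surjective e fun σ => ⟨AlgEquiv.ofRingEquiv (f := σ) (fun x =>
    RingHom.congr_fun (RingHom.ext_zmod (σ.toRingHom.comp (algebraMap (ZMod p) F)) _) x), RingEquiv.ext fun _ => rfl⟩

section Structure

variable [Finite F]

/-- The diagonal part of the outer automorphism group. -/
noncomputable def outDiag (hdec : Chev.chkDec D = true) : (Fin D.rank → Fˣ) →* Cfsg.Out ↥(D.group F) :=
  (QuotientGroup.mk' (Cfsg.Inn ↥(D.group F))).comp (diagHom G hdec)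

/-- The field part of the outer automorphism group. -/
noncomputable def outField (D : ChevalleyDatum) (F : Type*) [Field F] : (F ≃+* F) →* Cfsg.Out ↥(D.group F) :=
  (QuotientGroup.mk' (Cfsg.Inn ↥(D.group F))).comp (fieldHom D F)

omit [Finite F] in
theorem diag_closure (hdesc : Chev.chkDescend D = true) (hdec : Chev.chkDec D = true) :
    (Subgroup.closure {φ : MulAut ↥(D.group F) | D.IsDiagonalAut φ}).map
      (QuotientGroup.mk' (Cfsg.Inn ↥(D.group F))) = (outDiag G hdec).range := by
  rw [outDiag, MonoidHom.range_comp]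
  congr 1
  refine le_antisymm ((Subgroup.closure_le _).2 fun φ hφ => ?_) ?_
  · obtain ⟨c, rfl⟩ := diag_eq_diagHom G hdec hdesc hφ
    exact ⟨c, rfl⟩
  · rintro φ ⟨c, rfl⟩
    exact Subgroup.subset_closure (isDiagonalAut_diagAut G hdec (charOf G c) (isRootCharacter_charOf G c))

omit [Finite F] in
include G in
theorem field_closure (hdesc : Chev.chkDescend D = true) :
    (Subgroup.closure {φ : MulAut ↥(D.group F) | D.IsFieldAut φ}).map
      (QuotientGroup.mk' (Cfsg.Inn ↥(D.group F))) = (outField D F).range := by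
  rw [outField, MonoidHom.range_comp]
  congr 1
  refine le_antisymm ((Subgroup.closure_le _).2 fun φ hφ => ?_) ?_
  · obtain ⟨σ, rfl⟩ := field_eq_fieldHom G hdesc hφ
    exact ⟨σ, rfl⟩
  · rintro φ ⟨σ, rfl⟩
    exact Subgroup.subset_closure (isFieldAut_fieldAut G σ)

variable {ι : Type} (S : GraphSystem F G ι)

include S in
/-- Every outer automorphism is diagonal times graph times field. -/
theorem out_decompose (hD : D ∈ [chevG2, chevB2, chevD4, chevF4, chevE6, chevE7, chevE8])
    (hdesc : Chev.chkDescend D = true) (hdec : Chev.chkDec D = true) (w : Cfsg.Out ↥(D.group F)) :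
    ∃ c k σ, w = outDiag G hdec c * QuotientGroup.mk' (Cfsg.Inn ↥(D.group F)) (S.g k) * outField D F σ := by
  obtain ⟨θ, rfl⟩ := QuotientGroup.mk'_surjective _ w
  obtain ⟨x, d, g, σ, hd, hg, hθ⟩ := decompose hD (Isogeny.hasExceptional D F) θ
  obtain ⟨c, rfl⟩ := diag_eq_diagHom G hdec hdesc hd
  obtain ⟨k, rfl⟩ := S.complete g hg
  refine ⟨c, k, σ, ?_⟩
  have e : θ = MulAut.conj x * (diagHom G hdec c * S.g k * fieldHom D F σ) := MulEquiv.ext fun y => by
    simp only [MulAut.mul_apply, MulAut.conj_apply]; exact hθ y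
  rw [e, map_mul, show QuotientGroup.mk' (Cfsg.Inn ↥(D.group F)) (MulAut.conj x) = 1 from
    (QuotientGroup.eq_one_iff _).2 ⟨x, rfl⟩, one_mul, map_mul, map_mul]
  rfl

include S in
theorem normal_diag (hD : D ∈ [chevG2, chevB2, chevD4, chevF4, chevE6, chevE7, chevE8])
    (hdesc : Chev.chkDescend D = true) (hdec : Chev.chkDec D = true) :
    (outDiag G hdec (F := F)).range.Normal := by
  refine ⟨?_⟩
  rintro _ ⟨c, rfl⟩ w
  obtain ⟨c0, k, σ, rfl⟩ := out_decompose G S hD hdesc hdec w
  refine ⟨fun j => (fun j => Units.map σ.toRingHom.toMonoidHom (c j)) ((S.π k).symm j) ^ S.e k ((S.π k).symm j), ?_⟩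
  have e1 : outField D F σ * outDiag G hdec c =
      outDiag G hdec (fun j => Units.map σ.toRingHom.toMonoidHom (c j)) * outField D F σ := by
    simp only [outField, outDiag, MonoidHom.comp_apply, ← map_mul, field_diag G hdesc hdec σ c]
  have e2 : ∀ c', QuotientGroup.mk' (Cfsg.Inn ↥(D.group F)) (S.g k) * outDiag G hdec c' =
      outDiag G hdec (fun j => c' ((S.π k).symm j) ^ S.e k ((S.π k).symm j)) *
        QuotientGroup.mk' (Cfsg.Inn ↥(D.group F)) (S.g k) := fun c' => by
    simp only [outDiag, MonoidHom.comp_apply, ← map_mul, graph_diag G hdesc hdec (S.sends k) c']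
  symm
  rw [mul_inv_eq_iff_eq_mul, mul_assoc (outDiag G hdec c0 * _), e1, ← mul_assoc, mul_assoc (outDiag G hdec c0), e2,
    ← mul_assoc, ← mul_assoc, ← mul_assoc, ← map_mul, ← map_mul, mul_comm c0]

include S in
theorem normal_sup (hD : D ∈ [chevG2, chevB2, chevD4, chevF4, chevE6, chevE7, chevE8])
    (hdesc : Chev.chkDescend D = true) (hdec : Chev.chkDec D = true) :
    ((outDiag G hdec (F := F)).range ⊔ (outField D F).range).Normal := by
  haveI := normal_diag G S hD hdesc hdec
  refine ⟨fun n hn w => ?_⟩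
  obtain ⟨a, ha, b, ⟨τ, rfl⟩, rfl⟩ := Subgroup.mem_sup_of_normal_left.1 hn
  obtain ⟨c0, k, σ, rfl⟩ := out_decompose G S hD hdesc hdec w
  rw [← conj_mul]
  refine mul_mem (Subgroup.mem_sup_left ((inferInstance : (outDiag G hdec (F := F)).range.Normal).conj_mem a ha _)) ?_
  have hcomm : ∀ σ τ : F ≃+* F, σ * τ = τ * σ := by
    haveI := isCyclic_ringEquiv F
    intro a b
    exact (IsCyclic.commutative (α := F ≃+* F)).is_comm.comm a b
  have e1 : outField D F σ * outField D F τ * (outField D F σ)⁻¹ = outField D F τ := by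
    rw [← map_mul, hcomm, map_mul, mul_inv_cancel_right]
  have e2 : QuotientGroup.mk' (Cfsg.Inn ↥(D.group F)) (S.g k) * outField D F τ =
      outField D F τ * QuotientGroup.mk' (Cfsg.Inn ↥(D.group F)) (S.g k) := by
    simp only [outField, MonoidHom.comp_apply, ← map_mul, graph_field G hdesc (S.sends k) τ]
  set d := outDiag G hdec c0
  set g := QuotientGroup.mk' (Cfsg.Inn ↥(D.group F)) (S.g k)
  have e3 : d * g * outField D F σ * outField D F τ * (d * g * outField D F σ)⁻¹ =
      d * outField D F τ * d⁻¹ := by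
    rw [show d * g * outField D F σ * outField D F τ * (d * g * outField D F σ)⁻¹ =
      d * (g * (outField D F σ * outField D F τ * (outField D F σ)⁻¹) * g⁻¹) * d⁻¹ by group, e1, e2,
      mul_inv_cancel_right]
  rw [e3]
  exact mul_mem (mul_mem (Subgroup.mem_sup_left ⟨c0, rfl⟩) (Subgroup.mem_sup_right ⟨τ, rfl⟩))
    (inv_mem (Subgroup.mem_sup_left ⟨c0, rfl⟩))

omit [Finite F] in
theorem graph_mul_field_mem (hdesc : Chev.chkDescend D = true) (hdec : Chev.chkDec D = true)
    (c : Fin D.rank → Fˣ) (k : ι) (σ : F ≃+* F) :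
    QuotientGroup.mk' (Cfsg.Inn ↥(D.group F)) (triple G S hdec c k σ) =
      outDiag G hdec c * outField D F σ * QuotientGroup.mk' (Cfsg.Inn ↥(D.group F)) (S.g k) := by
  have : triple G S hdec c k σ = diagHom G hdec c * fieldHom D F σ * S.g k := by
    rw [mul_assoc, ← graph_field G hdesc (S.sends k) σ, ← mul_assoc]; rfl
  rw [this, map_mul, map_mul]; rfl

include S in
/-- Two graph automorphisms congruent modulo the diagonal and field parts have the same permutation. -/
theorem graph_unique (hD : D ∈ [chevG2, chevB2, chevD4, chevF4, chevE6, chevE7, chevE8])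
    (hdesc : Chev.chkDescend D = true) (hdec : Chev.chkDec D = true) {k k' : ι}
    (h : QuotientGroup.mk' (Cfsg.Inn ↥(D.group F)) (S.g k') * (QuotientGroup.mk' (Cfsg.Inn ↥(D.group F)) (S.g k))⁻¹ ∈
      (outDiag G hdec).range ⊔ (outField D F).range) : k' = k := by
  haveI := normal_diag G S hD hdesc hdec
  haveI : Fact (ringChar F).Prime := ⟨CharP.char_is_prime F (ringChar F)⟩
  obtain ⟨a, ⟨c, rfl⟩, b, ⟨σ, rfl⟩, e⟩ := Subgroup.mem_sup_of_normal_left.1 h
  have e' : QuotientGroup.mk' (Cfsg.Inn ↥(D.group F)) (triple G S hdec 1 k' 1) =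
      QuotientGroup.mk' (Cfsg.Inn ↥(D.group F)) (triple G S hdec c k σ) := by
    rw [graph_mul_field_mem G S hdesc hdec, graph_mul_field_mem G S hdesc hdec, map_one, map_one, one_mul, one_mul,
      e, inv_mul_cancel_right]
  obtain ⟨y, hy⟩ : triple G S hdec 1 k' 1 * (triple G S hdec c k σ)⁻¹ ∈ Cfsg.Inn ↥(D.group F) := by
    rw [← QuotientGroup.eq_one_iff]
    show QuotientGroup.mk' (Cfsg.Inn ↥(D.group F)) _ = 1
    rw [map_mul, map_inv, e', mul_inv_cancel]
  exact (triple_eq G S hdec (x := y) (by rw [hy, inv_mul_cancel_right])).1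

include S in
theorem index_sup (hD : D ∈ [chevG2, chevB2, chevD4, chevF4, chevE6, chevE7, chevE8])
    (hdesc : Chev.chkDescend D = true) (hdec : Chev.chkDec D = true) :
    ((outDiag G hdec (F := F)).range ⊔ (outField D F).range).index = Nat.card ι := by
  set N := (outDiag G hdec (F := F)).range ⊔ (outField D F).range
  haveI : N.Normal := normal_sup G S hD hdesc hdec
  refine (Nat.card_congr (Equiv.ofBijective (fun k => ((QuotientGroup.mk' (Cfsg.Inn ↥(D.group F)) (S.g k) :
    Cfsg.Out ↥(D.group F)) : Cfsg.Out ↥(D.group F) ⧸ N)) ⟨fun k k' h => ?_, fun q => ?_⟩)).symm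
  · have h' := QuotientGroup.eq_iff_div_mem.1 h
    rw [div_eq_mul_inv] at h'
    exact graph_unique G S hD hdesc hdec h'
  · obtain ⟨w, rfl⟩ := QuotientGroup.mk_surjective q
    obtain ⟨c, k, σ, rfl⟩ := out_decompose G S hD hdesc hdec w
    refine ⟨k, ?_⟩
    have h1 : ((outDiag G hdec c : Cfsg.Out ↥(D.group F)) : Cfsg.Out ↥(D.group F) ⧸ N) = 1 :=
      (QuotientGroup.eq_one_iff _).2 (Subgroup.mem_sup_left ⟨c, rfl⟩)
    have h2 : ((outField D F σ : Cfsg.Out ↥(D.group F)) : Cfsg.Out ↥(D.group F) ⧸ N) = 1 :=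
      (QuotientGroup.eq_one_iff _).2 (Subgroup.mem_sup_right ⟨σ, rfl⟩)
    rw [QuotientGroup.mk_mul, QuotientGroup.mk_mul, h1, h2, one_mul, mul_one]

end Structure

end Cfsg.Agent.H64.AutChev
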