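import Cfsg.Agent.H64.Chev.AutStructure

/-!
# The quotient of the outer automorphism group by diagonal and field automorphisms
-/

set_option autoImplicit false

namespace Cfsg.Agent.H64.AutChev

open Cfsg.Lie Cfsg.Agent.H46
open scoped Matrix MatrixGroups

variable {D : ChevalleyDatum} (G : Good D) {F : Type*} [Field F]

theorem card_realized_le {Ls : List (List ℕ)} (hn : chkNodes D Ls = true) (hz : chkSymmZero D = true) :
    Nat.card {π : Equiv.Perm (Fin D.rank) // Realized G F π} ≤ Ls.length := by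
  have h : ∀ π : {π : Equiv.Perm (Fin D.rank) // Realized G F π}, ∃ j : Fin Ls.length,
      ∀ i : Fin D.rank, (Ls[j.1]).getD i 0 = π.1 i := fun π => by
    obtain ⟨g, hsym, -⟩ := π.2
    obtain ⟨L, hL, hi⟩ := nodes_mem hn π.1 (cartan_zero_of_symmetry G hz hsym)
    obtain ⟨j, hj, rfl⟩ := List.getElem_of_mem hL
    exact ⟨⟨j, hj⟩, hi⟩
  choose j hj using h
  have hinj : Function.Injective j := fun a b e => Subtype.ext (Equiv.ext fun i => Fin.ext (by
    rw [← hj a i, ← hj b i, e]))
  simpa using Nat.card_le_card_of_injective j hinj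

theorem graphExp_D4 (c : ℕ) (i j : Fin chevD4.rank) : chevD4.graphExp c i j = 1 := by
  have h : ∀ i : Fin chevD4.rank, chevD4.isLong (chevD4.simple i) = false := by decide +kernel
  simp [ChevalleyDatum.graphExp, h]

/-- Every symmetry of the diagram `D₄` is induced by a graph automorphism. -/
theorem realized_D4 (G4 : Good chevD4) (π : Equiv.Perm (Fin chevD4.rank)) (hπ : chevD4.IsDiagramSymmetry π) : Realized G4 F π := by
  obtain ⟨Ts, h1, h2⟩ := Chev.tabs_of_mem (D := chevD4) (by simp)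
  obtain ⟨S, hS, hρ⟩ := Chev.exists_table h2 hπ
  have hS' : Chev.chkPlain chevD4 S = true := List.all_eq_true.1 h1 S hS
  simp only [Chev.chkPlain, Bool.and_eq_true, List.all_eq_true, List.mem_range, decide_eq_true_eq] at hS'
  obtain ⟨⟨hc, hsim⟩, -⟩ := hS'
  refine ⟨Cfsg.Agent.H47.SymTable.groupEquiv hc F, hπ, fun i t => ?_⟩
  obtain ⟨⟨⟨a, b⟩, c⟩, d⟩ := hsim i i.2
  beta_reduce
  rw [graphExp_D4]
  constructor <;> refine Subtype.ext (G4.eq_xg ?_) <;>
    rw [Cfsg.Agent.H47.SymTable.groupEquiv_coe, xG_coe, G4.coe_xg]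
  · rw [Cfsg.Agent.H47.SymTable.matEquiv_x hc F _ (G4.simple_lt i.2), a, c, hρ, Int.cast_one, one_mul, pow_one]
  · rw [Cfsg.Agent.H47.SymTable.matEquiv_x hc F _ (G4.neg_lt (G4.simple_lt i.2)), b, d, hρ, Int.cast_one,
      one_mul, pow_one]

theorem card_symmetry_D4 :
    Nat.card {π : Equiv.Perm (Fin 4) //
      ∀ i j : Fin 4, i ≠ j → chevD4.bonds (π i) (π j) = chevD4.bonds i j} = 6 := by
  rw [Nat.card_eq_fintype_card]
  decide +kernel

theorem card_realized_D4 (G4 : Good chevD4) : Nat.card {π : Equiv.Perm (Fin chevD4.rank) // Realized G4 F π} = 6 :=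
  (Nat.card_congr (Equiv.subtypeEquivRight fun π => ⟨fun h => h.choose_spec.1, realized_D4 G4 π⟩)).trans
    card_symmetry_D4

/-- The outer automorphism group of `D₄` has a non-commutative quotient. -/
theorem not_commutator_le_D4 [Finite F] (G4 : Good chevD4) :
    ¬ commutator (Cfsg.Out ↥(chevD4.group F)) ≤
      (outDiag G4 (F := F) (Chev.chkDec_of_mem (D := chevD4) (by simp))).range ⊔ (outField chevD4 F).range := by
  have hD : chevD4 ∈ [chevG2, chevB2, chevD4, chevF4, chevE6, chevE7, chevE8] := by simp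
  have hdesc := Chev.chkDescend_of_mem hD
  set hdec := Chev.chkDec_of_mem hD
  intro hle
  set S := fullSystem G4 (F := F) hdesc (by decide +kernel)
  obtain ⟨a, b, hab⟩ : ∃ a b : Equiv.Perm (Fin 4),
      (∀ i j : Fin 4, i ≠ j → chevD4.bonds (a i) (a j) = chevD4.bonds i j) ∧
      (∀ i j : Fin 4, i ≠ j → chevD4.bonds (b i) (b j) = chevD4.bonds i j) ∧ a * b ≠ b * a :=
    ⟨Equiv.swap 0 2, Equiv.swap 2 3, by decide +kernel, by decide +kernel, by decide +kernel⟩
  obtain ⟨ha, hb, hne⟩ := hab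
  let ka : {π : Equiv.Perm (Fin chevD4.rank) // Realized G4 F π} := ⟨a, realized_D4 G4 a ha⟩
  let kb : {π : Equiv.Perm (Fin chevD4.rank) // Realized G4 F π} := ⟨b, realized_D4 G4 b hb⟩
  have hsend : ∀ k : {π : Equiv.Perm (Fin chevD4.rank) // Realized G4 F π},
      Sends G4 (S.g k) k.1 (fun _ => 1) := fun k i t => by
    have h := S.sends k i t
    rw [show S.e k i = 1 from graphExp_D4 _ i _] at h
    exact h
  have hprod : ∀ k l : {π : Equiv.Perm (Fin chevD4.rank) // Realized G4 F π},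
      ∃ m, m.1 = k.1 * l.1 ∧ S.g k * S.g l = S.g m := fun k l => by
    have h : Sends G4 (S.g k * S.g l) (k.1 * l.1) (fun _ => 1) := fun i t => by
      simp only [MulAut.mul_apply, Equiv.Perm.mul_apply, pow_one]
      rw [(hsend l i t).1, (hsend l i t).2, pow_one, (hsend k _ t).1, (hsend k _ t).2, pow_one]
      exact ⟨rfl, rfl⟩
    have hsym : chevD4.IsDiagramSymmetry (k.1 * l.1) := fun i j hij => by
      rw [Equiv.Perm.mul_apply, Equiv.Perm.mul_apply, k.2.choose_spec.1 _ _ (l.1.injective.ne hij),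
        l.2.choose_spec.1 _ _ hij]
    exact ⟨⟨_, realized_D4 G4 _ hsym⟩, rfl, sends_ext G4 hdesc h (hsend ⟨_, realized_D4 G4 _ hsym⟩)⟩
  obtain ⟨m, hm, em⟩ := hprod ka kb
  obtain ⟨m', hm', em'⟩ := hprod kb ka
  have hmem := hle (Subgroup.commutator_mem_commutator
    (Subgroup.mem_top (QuotientGroup.mk' (Cfsg.Inn ↥(chevD4.group F)) (S.g ka)))
    (Subgroup.mem_top (QuotientGroup.mk' (Cfsg.Inn ↥(chevD4.group F)) (S.g kb))))
  rw [commutatorElement_def, mul_assoc, ← mul_inv_rev, ← map_mul, ← map_mul, em, em'] at hmem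
  have := congrArg Subtype.val (graph_unique G4 S hD hdesc hdec hmem)
  rw [hm, hm'] at this
  exact hne this

theorem out_structure [Finite F] (hD : D ∈ [chevG2, chevB2, chevD4, chevF4, chevE6, chevE7, chevE8])
    (Dbar Fbar : Subgroup (Cfsg.Out ↥(D.group F)))
    (hDbar : Dbar = (Subgroup.closure {φ : MulAut ↥(D.group F) | D.IsDiagonalAut φ}).map
      (QuotientGroup.mk' (Cfsg.Inn ↥(D.group F))))
    (hFbar : Fbar = (Subgroup.closure {φ : MulAut ↥(D.group F) | D.IsFieldAut φ}).map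
      (QuotientGroup.mk' (Cfsg.Inn ↥(D.group F)))) :
    Dbar.Normal ∧ IsMulCommutative ↥Dbar ∧ IsCyclic ↥Fbar ∧ (Dbar ⊔ Fbar).Normal ∧
      ((Dbar ⊔ Fbar).index = 1 ∨ (Dbar ⊔ Fbar).index = 2 ∨
        ((Dbar ⊔ Fbar).index = 6 ∧ ¬ commutator (Cfsg.Out ↥(D.group F)) ≤ Dbar ⊔ Fbar)) := by
  obtain ⟨G⟩ := good_of_mem hD
  have hdesc := Chev.chkDescend_of_mem hD
  have hdec := Chev.chkDec_of_mem hD
  rw [diag_closure G hdesc hdec] at hDbar
  rw [field_closure G hdesc] at hFbar
  subst hDbar hFbar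
  set S := fullSystem G (F := F) hdesc (rank_pos_of_mem hD)
  refine ⟨normal_diag G S hD hdesc hdec, ⟨⟨?_⟩⟩, ?_, normal_sup G S hD hdesc hdec, ?_⟩
  · rintro ⟨_, c, rfl⟩ ⟨_, c', rfl⟩
    exact Subtype.ext (by simp only [Subgroup.coe_mul, ← map_mul, mul_comm])
  · haveI := isCyclic_ringEquiv F
    exact isCyclic_of_surjective (outField D F).rangeRestrict (outField D F).rangeRestrict_surjective
  rw [index_sup G S hD hdesc hdec]
  have hpos : Nat.card {π : Equiv.Perm (Fin D.rank) // Realized G F π} ≠ 0 := by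
    rw [← index_sup G S hD hdesc hdec]
    exact Subgroup.index_ne_zero_of_finite
  simp only [List.mem_cons, List.not_mem_nil, or_false] at hD
  obtain ⟨nG, nB, nF, nD, n6, n7, n8⟩ := nodes_all
  rcases hD with rfl | rfl | rfl | rfl | rfl | rfl | rfl
  · have : Nat.card {π : Equiv.Perm (Fin chevG2.rank) // Realized G F π} ≤ 2 :=
      card_realized_le G nG symmZero_all.1
    omega
  · have : Nat.card {π : Equiv.Perm (Fin chevB2.rank) // Realized G F π} ≤ 2 :=
      card_realized_le G nB (by decide +kernel)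
    omega
  · right; right
    exact ⟨card_realized_D4 G, not_commutator_le_D4 G⟩
  · have : Nat.card {π : Equiv.Perm (Fin chevF4.rank) // Realized G F π} ≤ 2 :=
      card_realized_le G nF symmZero_all.2.1
    omega
  · have : Nat.card {π : Equiv.Perm (Fin chevE6.rank) // Realized G F π} ≤ 2 :=
      card_realized_le G n6 symmZero_all.2.2.1
    omega
  · have : Nat.card {π : Equiv.Perm (Fin chevE7.rank) // Realized G F π} ≤ 1 :=
      card_realized_le G n7 symmZero_all.2.2.2.1
    omega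
  · have : Nat.card {π : Equiv.Perm (Fin chevE8.rank) // Realized G F π} ≤ 1 :=
      card_realized_le G n8 symmZero_all.2.2.2.2
    omega

end Cfsg.Agent.H64.AutChev
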